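import Cfsg.Agent.Lib.ZStar.Section
import Cfsg.Agent.Lib.Char.ClassProd
import Cfsg.Agent.Lib.BlockH.Basic
import Cfsg.Agent.S0948

/-! # Block L, module M, part a (helper60): `MHyp` and the numbers from the principal block (S0948), see `LM.lean`. -/

set_option autoImplicit false
set_option linter.unusedVariables false
set_option linter.unusedSectionVars false
set_option linter.style.haveILetI false

namespace Cfsg.Agent.Lib.JT.LM

open Cfsg Subgroup
open scoped ComplexConjugate Pointwise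

universe u
variable {M : Type u} [Group M] [Finite M]

/-- The abstract hypotheses. -/
structure MHyp (E A : Subgroup M) (ρ : M) : Prop where
  hE4 : Nat.card E = 4
  hEinv : ∀ s ∈ E, s * s = 1
  hAodd : Odd (Nat.card A)
  hEA : ∀ s ∈ E, ∀ b ∈ A, s * b = b * s
  hAcomm : ∀ b ∈ A, ∀ c ∈ A, b * c = c * b
  hρ : orderOf ρ = 3
  hρE : ∀ s ∈ E, ρ * s * ρ⁻¹ ∈ E
  hρmove : ∀ s ∈ E, s ≠ 1 → ρ * s * ρ⁻¹ ≠ s
  hρA : ∀ b ∈ A, ρ * b * ρ⁻¹ ∈ A
  hC : ∀ s ∈ E, s ≠ 1 → ∀ g : M, g * s = s * g → ∃ s' ∈ E, ∃ b ∈ A, g = s' * b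

variable {E A : Subgroup M} {ρ : M}

namespace MHyp

theorem b_eq_one (H : MHyp E A ρ) {b : M} (hb : b ∈ A) {n : ℕ} (h : b ^ 2 ^ n = 1) : b = 1 := by
  have h1 : orderOf b ∣ 2 ^ n := orderOf_dvd_of_pow_eq_one h
  have h2 : orderOf b ∣ Nat.card A := by
    have := orderOf_dvd_natCard (⟨b, hb⟩ : A)
    rwa [Subgroup.orderOf_mk] at this
  have h3 : Nat.Coprime (Nat.card A) (2 ^ n) := Nat.Coprime.pow_right n (Nat.coprime_two_right.2 H.hAodd)
  have h4 := Nat.dvd_gcd h2 h1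
  rw [h3.gcd_eq_one, Nat.dvd_one] at h4
  exact orderOf_eq_one_iff.1 h4

theorem two_elt_mem (H : MHyp E A ρ) {s x : M} (hs : s ∈ E) (hs1 : s ≠ 1) (hc : x * s = s * x) {n : ℕ}
    (hx : x ^ 2 ^ n = 1) : x ∈ E := by
  cases n with
  | zero =>
    have : x = 1 := by simpa using hx
    rw [this]; exact E.one_mem
  | succ k =>
    obtain ⟨s', hs', b, hb, rfl⟩ := H.hC s hs hs1 x hc
    have hcomm : Commute s' b := H.hEA s' hs' b hb
    rw [hcomm.mul_pow] at hx
    have h1 : s' ^ 2 ^ (k + 1) = 1 := by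
      rw [pow_succ', pow_mul, pow_two, H.hEinv s' hs', one_pow]
    rw [h1, one_mul] at hx
    rw [H.b_eq_one hb hx, mul_one]
    exact hs'

theorem exists_ne_one (H : MHyp E A ρ) : ∃ s ∈ E, s ≠ 1 := by
  rcases Subgroup.bot_or_exists_ne_one E with h | h
  · exfalso
    have := H.hE4
    rw [h, Subgroup.card_bot] at this
    omega
  · exact h

theorem comm (H : MHyp E A ρ) {a b : M} (ha : a ∈ E) (hb : b ∈ E) : a * b = b * a := by
  have h1 := H.hEinv _ (E.mul_mem ha hb)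
  have h2 := H.hEinv a ha
  have h3 := H.hEinv b hb
  calc a * b = a * (a * b * (a * b)) * b := by rw [h1, mul_one]
    _ = (a * a) * b * a * (b * b) := by group
    _ = b * a := by rw [h2, h3]; group

theorem exists_sylow (H : MHyp E A ρ) : ∃ P : Sylow 2 M, (P : Subgroup M) = E := by
  haveI : Fact (Nat.Prime 2) := ⟨Nat.prime_two⟩
  have hEp : IsPGroup 2 E := IsPGroup.of_card (n := 2) (by rw [H.hE4]; norm_num)
  obtain ⟨P, hP⟩ := hEp.exists_le_sylow
  refine ⟨P, le_antisymm ?_ hP⟩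
  obtain ⟨s, hs, hs1⟩ := H.exists_ne_one
  have hPp := P.isPGroup'
  haveI : Nontrivial (P : Subgroup M) := ⟨⟨⟨s, hP hs⟩, 1, fun h => hs1 (congrArg Subtype.val h)⟩⟩
  haveI := hPp.center_nontrivial
  obtain ⟨⟨z, hzc⟩, hz1⟩ := exists_ne (1 : Subgroup.center (P : Subgroup M))
  have hz1' : (z : M) ≠ 1 := by
    intro h
    apply hz1
    apply Subtype.ext
    apply Subtype.ext
    exact h
  have hzcomm : ∀ x : (P : Subgroup M), (x : M) * z = z * x := by
    intro x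
    have := (Subgroup.mem_center_iff.1 hzc) x
    exact congrArg Subtype.val this
  obtain ⟨k, hk⟩ := hPp z
  have hzE : (z : M) ∈ E := H.two_elt_mem hs hs1 (hzcomm ⟨s, hP hs⟩).symm (by
    have := congrArg Subtype.val hk
    simpa using this)
  intro x hx
  obtain ⟨m, hm⟩ := hPp ⟨x, hx⟩
  exact H.two_elt_mem hzE hz1' (hzcomm ⟨x, hx⟩) (by
    have := congrArg Subtype.val hm
    simpa using this)

theorem conj_ne (H : MHyp E A ρ) {s : M} (hs1 : s ≠ 1) : ρ * s * ρ⁻¹ ≠ 1 := by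
  intro h
  apply hs1
  have : s = ρ⁻¹ * (ρ * s * ρ⁻¹) * ρ := by group
  rw [this, h]
  group

theorem orbit3 (H : MHyp E A ρ) {s : M} (hs : s ∈ E) (hs1 : s ≠ 1) :
    ρ * s * ρ⁻¹ ≠ s ∧ ρ * (ρ * s * ρ⁻¹) * ρ⁻¹ ≠ ρ * s * ρ⁻¹ ∧ ρ * (ρ * s * ρ⁻¹) * ρ⁻¹ ≠ s := by
  refine ⟨H.hρmove s hs hs1, H.hρmove _ (H.hρE s hs) (H.conj_ne hs1), ?_⟩
  intro h
  have h3 : ρ ^ 3 = 1 := by
    rw [← H.hρ]
    exact pow_orderOf_eq_one ρ
  apply H.hρmove s hs hs1
  have e2 : ρ * (ρ * (ρ * s * ρ⁻¹) * ρ⁻¹) * ρ⁻¹ = ρ ^ 3 * s * (ρ ^ 3)⁻¹ := by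
    rw [show ρ ^ 3 = ρ * ρ * ρ by rw [pow_succ, pow_two]]
    group
  calc ρ * s * ρ⁻¹ = ρ * (ρ * (ρ * s * ρ⁻¹) * ρ⁻¹) * ρ⁻¹ := by rw [h]
    _ = ρ ^ 3 * s * (ρ ^ 3)⁻¹ := e2
    _ = s := by rw [h3]; simp

theorem E_eq (H : MHyp E A ρ) {s : M} (hs : s ∈ E) (hs1 : s ≠ 1) (e : M) (he : e ∈ E) :
    e = 1 ∨ e = s ∨ e = ρ * s * ρ⁻¹ ∨ e = ρ * (ρ * s * ρ⁻¹) * ρ⁻¹ := by
  classical
  obtain ⟨h01, h12, h02⟩ := H.orbit3 hs hs1
  have hs₁ := H.hρE s hs
  have hs₂ := H.hρE _ hs₁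
  have h1 := H.conj_ne hs1
  have h2 := H.conj_ne h1
  set s₁ := ρ * s * ρ⁻¹ with hs₁d
  set s₂ := ρ * s₁ * ρ⁻¹ with hs₂d
  let U : Finset M := {1, s, s₁, s₂}
  have hU : U.card = 4 := by
    rw [Finset.card_insert_of_notMem, Finset.card_insert_of_notMem, Finset.card_insert_of_notMem, Finset.card_singleton]
    · simp [h12.symm]
    · simp only [Finset.mem_insert, Finset.mem_singleton, not_or]
      exact ⟨Ne.symm h01, Ne.symm h02⟩
    · simp only [Finset.mem_insert, Finset.mem_singleton, not_or]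
      exact ⟨Ne.symm hs1, Ne.symm h1, Ne.symm h2⟩
  have hsub : (U : Set M) ⊆ E := by
    intro x hx
    simp only [U, Finset.coe_insert, Finset.coe_singleton, Set.mem_insert_iff, Set.mem_singleton_iff] at hx
    rcases hx with rfl | rfl | rfl | rfl
    · exact E.one_mem
    · exact hs
    · exact hs₁
    · exact hs₂
  have heq : (U : Set M) = E := by
    apply Set.eq_of_subset_of_ncard_le hsub
    rw [Set.ncard_coe_finset, hU, ← Nat.card_coe_set_eq]
    exact le_of_eq H.hE4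
  have he' : e ∈ (U : Set M) := by rw [heq]; exact he
  simpa [U] using he'

theorem conj_of_mem (H : MHyp E A ρ) {s : M} (hs : s ∈ E) (hs1 : s ≠ 1) {e : M} (he : e ∈ E) (he1 : e ≠ 1) :
    IsConj s e := by
  have c1 : IsConj s (ρ * s * ρ⁻¹) := isConj_iff.2 ⟨ρ, rfl⟩
  have c2 : IsConj (ρ * s * ρ⁻¹) (ρ * (ρ * s * ρ⁻¹) * ρ⁻¹) := isConj_iff.2 ⟨ρ, rfl⟩
  rcases H.E_eq hs hs1 e he with rfl | rfl | rfl | rfl
  · exact absurd rfl he1
  · exact IsConj.refl _
  · exact c1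
  · exact c1.trans c2

/-- An involution is `g e g⁻¹`, `e ∈ E^#`. -/
theorem exists_conj (H : MHyp E A ρ) {z : M} (hz : orderOf z = 2) : ∃ g e, e ∈ E ∧ e ≠ 1 ∧ z = g * e * g⁻¹ := by
  haveI : Fact (Nat.Prime 2) := ⟨Nat.prime_two⟩
  obtain ⟨P, hPE⟩ := H.exists_sylow
  have hzp : IsPGroup 2 (zpowers z) := by
    apply IsPGroup.of_card (n := 1)
    rw [Nat.card_zpowers, hz, pow_one]
  obtain ⟨Q, hQ⟩ := hzp.exists_le_sylow
  obtain ⟨g, hg⟩ := MulAction.exists_smul_eq M P Q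
  have hmem : z ∈ ((g • P : Sylow 2 M) : Subgroup M) := by
    rw [hg]
    exact hQ (mem_zpowers z)
  rw [Sylow.coe_subgroup_smul, Subgroup.mem_pointwise_smul_iff_inv_smul_mem, MulAut.smul_def, ← map_inv, hPE] at hmem
  have e1 : (MulAut.conj g⁻¹) z = g⁻¹ * z * g := by simp
  rw [e1] at hmem
  refine ⟨g, _, hmem, ?_, by group⟩
  intro h
  have : z = 1 := by
    have e2 : z = g * (g⁻¹ * z * g) * g⁻¹ := by group
    rw [e2, h]
    group
  rw [this, orderOf_one] at hz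
  omega

theorem isConj_of_two (H : MHyp E A ρ) {s : M} (hs : s ∈ E) (hs1 : s ≠ 1) {z : M} (hz : orderOf z = 2) : IsConj s z := by
  obtain ⟨g, e, he, he1, rfl⟩ := H.exists_conj hz
  exact (H.conj_of_mem hs hs1 he he1).trans (isConj_iff.2 ⟨g, rfl⟩)

theorem orderOf_two (H : MHyp E A ρ) {s : M} (hs : s ∈ E) (hs1 : s ≠ 1) : orderOf s = 2 :=
  orderOf_eq_prime (by rw [pow_two]; exact H.hEinv s hs) hs1

/-- Two involutions with a product of even order commute. -/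
theorem comm_of_two_dvd (H : MHyp E A ρ) {x y : M} (hx : x * x = 1) (hy : y * y = 1) (hd : 2 ∣ orderOf (x * y)) :
    x * y = y * x := by
  have hxi : x⁻¹ = x := inv_eq_of_mul_eq_one_left hx
  have hyi : y⁻¹ = y := inv_eq_of_mul_eq_one_left hy
  have hpos : orderOf (x * y) ≠ 0 := (orderOf_pos (x * y)).ne'
  set n := orderOf (x * y) / 2 with hn
  set z := (x * y) ^ n with hzd
  have hzo : orderOf z = 2 := orderOf_pow_orderOf_div hpos hd
  have hz2 : z * z = 1 := by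
    rw [← pow_two]
    rw [← hzo]
    exact pow_orderOf_eq_one z
  have hinv : (y * x) = (x * y)⁻¹ := by
    rw [mul_inv_rev, hxi, hyi]
  have hzi : z⁻¹ = z := inv_eq_of_mul_eq_one_left hz2
  have hxz : x * z * x⁻¹ = z := by
    have : x * z * x⁻¹ = (x * (x * y) * x⁻¹) ^ n := by
      rw [hzd, conj_pow]
    rw [this, hxi, show x * (x * y) * x = y * x by rw [← mul_assoc, hx, one_mul], hinv, inv_pow, ← hzd, hzi]
  have hyz : y * z * y⁻¹ = z := by
    have : y * z * y⁻¹ = (y * (x * y) * y⁻¹) ^ n := by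
      rw [hzd, conj_pow]
    rw [this, hyi, show y * (x * y) * y = y * x by rw [mul_assoc, mul_assoc, hy, mul_one], hinv, inv_pow, ← hzd, hzi]
  obtain ⟨g, e, he, he1, hze⟩ := H.exists_conj hzo
  have hcx : ∀ w : M, w * w = 1 → w * z * w⁻¹ = z → g⁻¹ * w * g ∈ E := by
    intro w hw hwz
    have hc : (g⁻¹ * w * g) * e = e * (g⁻¹ * w * g) := by
      have e0 : e = g⁻¹ * z * g := by rw [hze]; group
      have e1 : w * z = z * w := mul_inv_eq_iff_eq_mul.1 hwz
      rw [e0]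
      calc g⁻¹ * w * g * (g⁻¹ * z * g) = g⁻¹ * (w * z) * g := by group
        _ = g⁻¹ * (z * w) * g := by rw [e1]
        _ = _ := by group
    refine H.two_elt_mem (n := 1) he he1 hc ?_
    have : (g⁻¹ * w * g) ^ 2 ^ 1 = g⁻¹ * (w * w) * g := by
      rw [pow_one, pow_two]; group
    rw [this, hw]
    group
  have h1 := H.comm (hcx x hx hxz) (hcx y hy hyz)
  calc x * y = g * ((g⁻¹ * x * g) * (g⁻¹ * y * g)) * g⁻¹ := by group
    _ = g * ((g⁻¹ * y * g) * (g⁻¹ * x * g)) * g⁻¹ := by rw [h1]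
    _ = y * x := by group

/-- `|C_M(s)| = 4 |A|`. -/
theorem card_centr (H : MHyp E A ρ) {s : M} (hs : s ∈ E) (hs1 : s ≠ 1) :
    Nat.card (centralizer ({s} : Set M)) = 4 * Nat.card A := by
  classical
  have hmem : ∀ x : E × A, ((x.1 : M) * (x.2 : M)) ∈ centralizer ({s} : Set M) := by
    rintro ⟨⟨e, he⟩, ⟨b, hb⟩⟩
    rw [Subgroup.mem_centralizer_singleton_iff]
    show e * b * s = s * (e * b)
    calc e * b * s = e * (s * b) := by rw [mul_assoc, (H.hEA s hs b hb).symm]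
      _ = (e * s) * b := by group
      _ = (s * e) * b := by rw [H.comm he hs]
      _ = _ := by group
  let f : E × A → centralizer ({s} : Set M) := fun x => ⟨(x.1 : M) * (x.2 : M), hmem x⟩
  have hf : Function.Bijective f := by
    constructor
    · rintro ⟨⟨e, he⟩, ⟨b, hb⟩⟩ ⟨⟨e', he'⟩, ⟨b', hb'⟩⟩ h
      have h1 : e * b = e' * b' := congrArg Subtype.val h
      have h2 : e'⁻¹ * e = b' * b⁻¹ := by
        calc e'⁻¹ * e = e'⁻¹ * (e * b) * b⁻¹ := by group
          _ = e'⁻¹ * (e' * b') * b⁻¹ := by rw [h1]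
          _ = _ := by group
      have h3 : b' * b⁻¹ = 1 := by
        apply H.b_eq_one (n := 1) (A.mul_mem hb' (A.inv_mem hb))
        rw [← h2, pow_one, pow_two]
        exact H.hEinv _ (E.mul_mem (E.inv_mem he') he)
      have h4 : b' = b := mul_inv_eq_one.1 h3
      have h5 : e = e' := by
        rw [h3] at h2
        exact (inv_mul_eq_one.1 h2).symm
      subst h4 h5
      rfl
    · rintro ⟨g, hg⟩
      rw [Subgroup.mem_centralizer_singleton_iff] at hg
      obtain ⟨e, he, b, hb, rfl⟩ := H.hC s hs hs1 g hg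
      exact ⟨⟨⟨e, he⟩, ⟨b, hb⟩⟩, rfl⟩
  rw [← Nat.card_congr (Equiv.ofBijective f hf), Nat.card_prod, H.hE4]

end MHyp

/-- [LMa] Step (2) of the header of `LM.lean`. -/
theorem numbers (H : MHyp E A ρ) : ∃ D₂ D₃ D₄ : ℤ, D₂ % 4 = 1 ∧ D₃ % 4 = 1 ∧ D₄ % 4 = 1 ∧ 1 + D₂ + D₃ + D₄ = 0 ∧
    (Nat.card M : ℚ) * (1 + 1 / (D₂ : ℚ) + 1 / (D₃ : ℚ) + 1 / (D₄ : ℚ)) = 32 * (Nat.card A : ℚ) := by
  classical
  haveI : Fact (Nat.Prime 2) := ⟨Nat.prime_two⟩
  letI : Fintype M := Fintype.ofFinite M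
  haveI := Cfsg.Agent.Lib.Char.Ortho.finite_irrCharacter (G := M)
  letI : Fintype (IrrCharacter M) := Fintype.ofFinite _
  obtain ⟨J, hJ⟩ := Cfsg.Agent.Lib.BlockH.Basic.exists_isPModular Nat.prime_two
  obtain ⟨P, hPE⟩ := H.exists_sylow
  obtain ⟨s, hs, hs1⟩ := H.exists_ne_one
  have hso := H.orderOf_two hs hs1
  have hK4 : IsKleinFour (P : Subgroup M) := by
    rw [hPE]
    refine ⟨H.hE4, ?_⟩
    haveI : Nontrivial E := ⟨⟨⟨s, hs⟩, 1, fun h => hs1 (congrArg Subtype.val h)⟩⟩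
    rw [Monoid.exponent_eq_prime_iff Nat.prime_two]
    intro g hg
    have : (g : M) ≠ 1 := fun h => hg (Subtype.ext h)
    rw [← Subgroup.orderOf_coe]
    exact H.orderOf_two g.2 this
  have hone : ∀ a b : M, orderOf a = 2 → orderOf b = 2 → IsConj a b := fun a b ha hb =>
    (H.isConj_of_two hs hs1 ha).symm.trans (H.isConj_of_two hs hs1 hb)
  obtain ⟨z₂, z₃, z₄, ε, hε, hn2, hn3, h23, h24, h34, hB, hval, d2, d3, d4, hrel⟩ := Cfsg.Agent.S0948.result J hJ P hK4 hone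
  haveI := hJ.2.1.isPrime
  let F : M → ℂ := Cfsg.Agent.Lib.ZStar.Section.secSum J s
  let K : Finset M := Finset.univ.filter (fun x => IsConj s x)
  have hFinv : ∀ z, orderOf z = 2 → F z = F s := by
    intro z hz
    obtain ⟨g, hg⟩ := isConj_iff.1 (H.isConj_of_two hs hs1 hz)
    rw [← hg]
    exact Cfsg.Agent.Lib.ZStar.Section.secSum_conj J s s g
  have hy2 : ∃ k : ℕ, orderOf s = 2 ^ k := ⟨1, by simpa using hso⟩
  have hFodd : ∀ g, ¬ 2 ∣ orderOf g → F g = 0 := by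
    intro g hg
    have hpp : IsPPart 2 g 1 := ⟨g, one_mul g, Commute.one_left g, ⟨0, by simp⟩, hg⟩
    refine Cfsg.Agent.Lib.ZStar.Section.secSum_eq_zero hJ hy2 hpp ?_
    intro hc
    exact hs1 (isConj_one_right.1 hc)
  have hconjord : ∀ (g e : M), orderOf (g * e * g⁻¹) = orderOf e := by
    intro g e
    have e1 : g * e * g⁻¹ = MulAut.conj g e := (MulAut.conj_apply g e).symm
    rw [e1, MulEquiv.orderOf_eq]
  have hinner : ∀ x ∈ K, ∑ y ∈ K, F (x * y) = 2 * F s := by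
    intro x hx
    obtain ⟨g, hg⟩ := isConj_iff.1 (Finset.mem_filter.1 hx).2
    have hs2 : s * s = 1 := H.hEinv s hs
    have hx2 : x * x = 1 := by
      rw [← hg]
      calc g * s * g⁻¹ * (g * s * g⁻¹) = g * (s * s) * g⁻¹ := by group
        _ = 1 := by rw [hs2]; group
    obtain ⟨h01, h12, h02⟩ := H.orbit3 hs hs1
    have hs₁ := H.hρE s hs
    have hs₂ := H.hρE _ hs₁
    have hn1 := H.conj_ne hs1
    have hn2' := H.conj_ne hn1
    set s₁ := ρ * s * ρ⁻¹ with hs₁d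
    set s₂ := ρ * s₁ * ρ⁻¹ with hs₂d
    let a := g * s₁ * g⁻¹
    let b := g * s₂ * g⁻¹
    have hab : a ≠ b := by
      intro h
      apply h12
      have h3 : g * s₁ * g⁻¹ = g * s₂ * g⁻¹ := h
      have h4 : s₁ = s₂ := by simpa using h3
      exact h4.symm
    have haK : a ∈ K := Finset.mem_filter.2 ⟨Finset.mem_univ _, (H.conj_of_mem hs hs1 hs₁ hn1).trans (isConj_iff.2 ⟨g, rfl⟩)⟩
    have hbK : b ∈ K := Finset.mem_filter.2 ⟨Finset.mem_univ _, (H.conj_of_mem hs hs1 hs₂ hn2').trans (isConj_iff.2 ⟨g, rfl⟩)⟩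
    have hprod : ∀ e ∈ E, e ≠ 1 → e ≠ s → orderOf (x * (g * e * g⁻¹)) = 2 := by
      intro e he he1 hes
      have e1 : x * (g * e * g⁻¹) = g * (s * e) * g⁻¹ := by rw [← hg]; group
      rw [e1, hconjord]
      refine H.orderOf_two (E.mul_mem hs he) ?_
      intro h
      apply hes
      have : e = s⁻¹ := eq_inv_of_mul_eq_one_right h
      rw [this, inv_eq_of_mul_eq_one_left hs2]
    have hvala : F (x * a) = F s := hFinv _ (hprod s₁ hs₁ hn1 (Ne.symm (Ne.symm h01)))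
    have hvalb : F (x * b) = F s := hFinv _ (hprod s₂ hs₂ hn2' h02)
    have hvalz : ∀ y ∈ K, y ≠ a → y ≠ b → F (x * y) = 0 := by
      intro y hy hya hyb
      apply hFodd
      intro hd
      obtain ⟨g', hg'⟩ := isConj_iff.1 (Finset.mem_filter.1 hy).2
      have hy2' : y * y = 1 := by
        rw [← hg']
        calc g' * s * g'⁻¹ * (g' * s * g'⁻¹) = g' * (s * s) * g'⁻¹ := by group
          _ = 1 := by rw [hs2]; group
      have hc := H.comm_of_two_dvd hx2 hy2' hd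
      have hy' : g⁻¹ * y * g ∈ E := by
        refine H.two_elt_mem (n := 1) hs hs1 ?_ ?_
        · have e0 : s = g⁻¹ * x * g := by rw [← hg]; group
          calc g⁻¹ * y * g * s = g⁻¹ * (y * (g * s * g⁻¹)) * g := by group
            _ = g⁻¹ * (y * x) * g := by rw [hg]
            _ = g⁻¹ * (x * y) * g := by rw [hc]
            _ = g⁻¹ * ((g * s * g⁻¹) * y) * g := by rw [hg]
            _ = s * (g⁻¹ * y * g) := by group
        · have : (g⁻¹ * y * g) ^ 2 ^ 1 = g⁻¹ * (y * y) * g := by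
            rw [pow_one, pow_two]; group
          rw [this, hy2']
          group
      have hback : ∀ e, g⁻¹ * y * g = e → y = g * e * g⁻¹ := by
        intro e he
        rw [← he]
        group
      rcases H.E_eq hs hs1 _ hy' with h | h | h | h
      · have h5 := hback _ h
        have h6 : y = 1 := by rw [h5]; group
        rw [h6] at hy2' hd
        simp only [mul_one] at hd
        rw [h6] at hg'
        have h7 : s = 1 := by
          have : g' * s * g'⁻¹ = 1 := hg'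
          simpa using this
        exact hs1 h7
      · have h5 := hback _ h
        rw [hg] at h5
        rw [h5, hx2, orderOf_one] at hd
        omega
      · exact hya (hback _ h)
      · exact hyb (hback _ h)
    have hsplit : ∀ y ∈ K, F (x * y) = (if y = a then F s else 0) + (if y = b then F s else 0) := by
      intro y hy
      by_cases h1 : y = a
      · subst h1
        rw [if_pos rfl, if_neg hab, add_zero]
        exact hvala
      · by_cases h2 : y = b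
        · subst h2
          rw [if_neg h1, if_pos rfl, zero_add]
          exact hvalb
        · rw [if_neg h1, if_neg h2, add_zero]
          exact hvalz y hy h1 h2
    rw [Finset.sum_congr rfl hsplit, Finset.sum_add_distrib, Finset.sum_ite_eq', Finset.sum_ite_eq', if_pos haK, if_pos hbK]
    ring
  have hcardK : (K.card : ℂ) = (Nat.card {x : M // IsConj s x} : ℂ) := by
    congr 1
    rw [Nat.card_eq_fintype_card, Fintype.card_subtype]
  have htotal : ∑ x ∈ K, ∑ y ∈ K, F (x * y) = (Nat.card {x : M // IsConj s x} : ℂ) * (2 * F s) := by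
    rw [Finset.sum_congr rfl hinner, Finset.sum_const, nsmul_eq_mul, hcardK]
  let one : IrrCharacter M := Cfsg.Agent.Lib.Blocks.Third.oneI M
  have hone1 : ∀ g : M, (one : M → ℂ) g = 1 := fun g => rfl
  obtain ⟨v2, v3, v4⟩ := hval s hso
  have hd2 := Cfsg.Agent.Lib.Char.Degree.charDegree_natCast (Cfsg.Agent.Lib.Char.Basic.isCharacter_of_isIrrCharacter z₂.2)
  have hd3 := Cfsg.Agent.Lib.Char.Degree.charDegree_natCast (Cfsg.Agent.Lib.Char.Basic.isCharacter_of_isIrrCharacter z₃.2)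
  have hd4 := Cfsg.Agent.Lib.Char.Degree.charDegree_natCast (Cfsg.Agent.Lib.Char.Basic.isCharacter_of_isIrrCharacter z₄.2)
  have hp2 := Cfsg.Agent.Lib.Char.Degree.charDegree_pos z₂.2
  have hp3 := Cfsg.Agent.Lib.Char.Degree.charDegree_pos z₃.2
  have hp4 := Cfsg.Agent.Lib.Char.Degree.charDegree_pos z₄.2
  set n₂ := charDegree (z₂ : M → ℂ) with hn₂
  set n₃ := charDegree (z₃ : M → ℂ) with hn₃
  set n₄ := charDegree (z₄ : M → ℂ) with hn₄
  have hne1 : one ≠ z₂ := fun h => hn2 (by rw [← h]; rfl)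
  have hne2 : one ≠ z₃ := fun h => hn3 (by rw [← h]; rfl)
  have hne3 : one ≠ z₄ := by
    intro h
    have h1 : (z₄ : M → ℂ) s = 1 := by rw [← h]; rfl
    rw [v4] at h1
    norm_num at h1
  have hsumB : ∀ f : IrrCharacter M → ℂ, (∑ χ : IrrCharacter M, if χ ∈ principalBlock J M then f χ else 0) =
      f one + f z₂ + f z₃ + f z₄ := by
    intro f
    have hS : (Finset.univ.filter (fun χ : IrrCharacter M => χ ∈ principalBlock J M)) = {one, z₂, z₃, z₄} := by
      ext χ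
      simp only [Finset.mem_filter, Finset.mem_univ, true_and, Finset.mem_insert, Finset.mem_singleton]
      rw [hB]
      show (_ ∨ _ ∨ _ ∨ _) ↔ _
      constructor
      · rintro (h | h | h | h)
        · left
          exact Subtype.ext h
        · exact Or.inr (Or.inl h)
        · exact Or.inr (Or.inr (Or.inl h))
        · exact Or.inr (Or.inr (Or.inr h))
      · rintro (h | h | h | h)
        · left
          rw [h]
          rfl
        · exact Or.inr (Or.inl h)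
        · exact Or.inr (Or.inr (Or.inl h))
        · exact Or.inr (Or.inr (Or.inr h))
    rw [← Finset.sum_filter, hS, Finset.sum_insert, Finset.sum_insert, Finset.sum_insert, Finset.sum_singleton]
    · ring
    · simpa using h34
    · simp only [Finset.mem_insert, Finset.mem_singleton, not_or]
      exact ⟨h23, h24⟩
    · simp only [Finset.mem_insert, Finset.mem_singleton, not_or]
      exact ⟨hne1, hne2, hne3⟩
  have hεc : (ε : ℂ) * (ε : ℂ) = 1 := by
    rcases hε with rfl | rfl <;> simp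
  have hεconj : conj (ε : ℂ) = (ε : ℂ) := by simp
  have hFs : F s = 4 := by
    have e1 : F s = ∑ χ : IrrCharacter M, if χ ∈ principalBlock J M then (χ : M → ℂ) s * conj ((χ : M → ℂ) s) else 0 := rfl
    rw [e1, hsumB, hone1, v2, v3, v4, hεconj, hεc]
    simp
    norm_num
  have hexp : ∑ x ∈ K, ∑ y ∈ K, F (x * y) = ∑ χ : IrrCharacter M, if χ ∈ principalBlock J M then
      (Nat.card {x : M // IsConj s x} : ℂ) * (Nat.card {x : M // IsConj s x} : ℂ) *
        ((χ : M → ℂ) s * (χ : M → ℂ) s / (χ : M → ℂ) 1) * conj ((χ : M → ℂ) s) else 0 := by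
    have e1 : ∀ x y, F (x * y) = ∑ χ : IrrCharacter M, if χ ∈ principalBlock J M then
        (χ : M → ℂ) (x * y) * conj ((χ : M → ℂ) s) else 0 := fun _ _ => rfl
    simp_rw [e1]
    rw [Finset.sum_congr rfl (fun x _ => Finset.sum_comm), Finset.sum_comm]
    refine Finset.sum_congr rfl fun χ _ => ?_
    split_ifs with hχ
    · rw [← Cfsg.Agent.Lib.Char.ClassProd.sum_class_sum_class_irr χ.2 s s]
      simp only [Finset.sum_mul]
      rfl
    · simp
  rw [hexp, hsumB] at htotal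
  simp only [hone1, v2, v3, v4, hεconj, ← hd2, ← hd3, ← hd4] at htotal
  rw [hFs] at htotal
  have hcard1 : (Nat.card {x : M // IsConj s x} : ℂ) * (4 * (Nat.card A : ℂ)) = (Nat.card M : ℂ) := by
    have h1 := Cfsg.Agent.Lib.Char.ClassSum.card_class_mul_card_centralizer s
    rw [H.card_centr hs hs1] at h1
    exact_mod_cast h1
  haveI hne0 : Nonempty {x : M // IsConj s x} := ⟨⟨s, IsConj.refl s⟩⟩
  have hh : (Nat.card {x : M // IsConj s x} : ℂ) ≠ 0 := Nat.cast_ne_zero.2 Nat.card_pos.ne'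
  set h₀ : ℂ := (Nat.card {x : M // IsConj s x} : ℂ) with hh₀
  have hn₂c : (n₂ : ℂ) ≠ 0 := Nat.cast_ne_zero.2 hp2.ne'
  have hn₃c : (n₃ : ℂ) ≠ 0 := Nat.cast_ne_zero.2 hp3.ne'
  have hn₄c : (n₄ : ℂ) ≠ 0 := Nat.cast_ne_zero.2 hp4.ne'
  have hmain : h₀ * (1 + 1 / (n₂ : ℂ) + (ε : ℂ) / (n₃ : ℂ) - 1 / (n₄ : ℂ)) = 8 := by
    apply mul_left_cancel₀ hh
    have e3 : (ε : ℂ) * (ε : ℂ) * (ε : ℂ) = (ε : ℂ) := by rw [hεc, one_mul]
    have e4 : h₀ * (h₀ * (1 + 1 / (n₂ : ℂ) + (ε : ℂ) / (n₃ : ℂ) - 1 / (n₄ : ℂ))) =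
        h₀ * h₀ * (1 * 1 / 1) * 1 + h₀ * h₀ * (1 * 1 / (n₂ : ℂ)) * 1 +
          h₀ * h₀ * ((ε : ℂ) * (ε : ℂ) / (n₃ : ℂ)) * (ε : ℂ) + h₀ * h₀ * ((-1) * (-1) / (n₄ : ℂ)) * conj (-1 : ℂ) := by
      have e5 : conj (-1 : ℂ) = -1 := by simp
      rw [e5]
      have e6 : h₀ * h₀ * ((ε : ℂ) * (ε : ℂ) / (n₃ : ℂ)) * (ε : ℂ) = h₀ * h₀ * (((ε : ℂ) * (ε : ℂ) * (ε : ℂ)) / (n₃ : ℂ)) := by ring
      rw [e6, e3]
      field_simp
      ring
    rw [e4]
    have e7 := htotal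
    simp only [map_one, map_neg] at e7 ⊢
    rw [e7]
    ring
  refine ⟨(n₂ : ℤ), ε * (n₃ : ℤ), -(n₄ : ℤ), by omega, ?_, by omega, ?_, ?_⟩
  · rcases hε with rfl | rfl <;> omega
  · have hr := hrel 1 (by rw [orderOf_one]; exact odd_one)
    rw [← hd2, ← hd3, ← hd4] at hr
    have hr' : ((1 + (n₂ : ℤ) + ε * (n₃ : ℤ) - (n₄ : ℤ) : ℤ) : ℂ) = 0 := by
      push_cast
      exact hr
    have hr2 : (1 + (n₂ : ℤ) + ε * (n₃ : ℤ) - (n₄ : ℤ) : ℤ) = 0 := by exact_mod_cast hr'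
    linarith
  · apply Rat.cast_injective (α := ℂ)
    push_cast
    rw [← hcard1]
    have e8 : (1 : ℂ) / ((ε : ℂ) * (n₃ : ℂ)) = (ε : ℂ) / (n₃ : ℂ) := by
      rcases hε with rfl | rfl
      · simp
      · simp [neg_div]
    rw [e8]
    have e9 : (1 : ℂ) / (-(n₄ : ℂ)) = - (1 / (n₄ : ℂ)) := by
      rw [one_div, one_div, inv_neg]
    rw [e9]
    calc h₀ * (4 * (Nat.card A : ℂ)) * (1 + 1 / (n₂ : ℂ) + (ε : ℂ) / (n₃ : ℂ) + -(1 / (n₄ : ℂ)))
        = (h₀ * (1 + 1 / (n₂ : ℂ) + (ε : ℂ) / (n₃ : ℂ) - 1 / (n₄ : ℂ))) * (4 * (Nat.card A : ℂ)) := by ring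
      _ = 32 * (Nat.card A : ℂ) := by rw [hmain]; ring

end Cfsg.Agent.Lib.JT.LM
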